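import Cfsg.Agent.H15.MX0

/-! Maximal 2-local subgroups of a group of Monster type: the starting subgroup and the final count. -/

set_option autoImplicit false
set_option linter.unusedSectionVars false

namespace H10.MX
open Cfsg H15 H19 H0 H0.Mo H0.Y H15.ML H15.MX Subgroup

/-- the involutions of the centre -/
def om {G : Type} [Group G] (R : Subgroup G) : Subgroup G where
  carrier := {x | x ∈ R ∧ x ∈ C(R) ∧ x * x = 1}
  one_mem' := ⟨one_mem _, one_mem _, by simp⟩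
  mul_mem' := fun {a b} ha hb => ⟨mul_mem ha.1 hb.1, mul_mem ha.2.1 hb.2.1, by
    have e : a * b = b * a := mem_cent.1 hb.2.1 a ha.1
    calc a * b * (a * b) = a * (b * a) * b := by group
      _ = a * a * (b * b) := by rw [← e]; group
      _ = 1 := by rw [ha.2.2, hb.2.2, one_mul]⟩
  inv_mem' := fun {a} ha => ⟨inv_mem ha.1, inv_mem ha.2.1, by rw [← mul_inv_rev, ha.2.2, inv_one]⟩

theorem st : ST := by
  intro G _ _ z h H hH
  obtain ⟨⟨T, t2, t1, e⟩, mx⟩ := hH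
  have tp : PG 2 T := PiN.of_isPGroup Nat.prime_two t2
  have TR : T ≤ Oc {2} H := le_Oc (e ▸ normalIn_norm T) tp
  have rp : PG 2 (Oc {2} H) := Oc_pi _ _
  generalize hR : Oc {2} H = R at TR rp
  have HR : H ≤ N(R) := hR ▸ Oc_norm _ _
  have R1 : R ≠ ⊥ := ne_bot_mono TR t1
  have sq : ∀ v ∈ om R, v * v = 1 := fun v a => a.2.2
  have V1 : om R ≠ ⊥ := by
    have c := rp.center_ne_bot R1
    obtain ⟨x, a, o⟩ := exists_orderOf_eq_prime Nat.prime_two ((rp.infl C(R)).dvd_of_ne_bot c)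
    exact ne_bot_of_mem (x := x) ⟨a.1, a.2, mul_self_of_order o⟩ (ne_one_of_order o)
  have HV : H ≤ N(om R) := fun g a => mem_norm_of_cj_le fun x b => by
    obtain ⟨y, c, rfl⟩ := mem_cj'.1 b
    exact ⟨conj_mem_of_norm (HR a) c.1, conj_mem_of_norm (norm_le_norm_cent R (HR a)) c.2.1,
      by rw [conj_mul, c.2.2]; simp⟩
  have eV : N(om R) = H := mx _ ⟨_, (pg_of_sq sq).isPGroup, V1, rfl⟩ HV
  have eR : N(R) = H := mx _ ⟨_, rp.isPGroup, R1, rfl⟩ HR
  have VR : om R ≤ R := fun _ a => a.1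
  have RV : R ≤ C(om R) := cents_symm fun _ a => a.2.1
  refine ⟨om R, V1, sq, HV, fun ⟨s, sV, b⟩ => ⟨sq, fun X hX X1 n => ?_⟩⟩
  have cs : C(om R) ≤ N(Qo s) := (cent_le_cent1 sV).trans (nQ h b)
  have QR : Qo s ⊓ C(om R) ≤ R := by
    have k : Oc {2} C(om R) ⊴ H := (eV ▸ cent_normal_norm (om R)).Oc _
    exact (le_Oc (inf_normal_of_norm cs) ((es h b).pg.infl _)).trans ((le_Oc k (Oc_pi _ _)).trans hR.le)
  have CR : C(R) ≤ R := by
    refine hR ▸ le_Oc (hR ▸ eR ▸ cent_normal_norm R) fun p pp d => ?_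
    by_contra n2
    obtain ⟨a, m, o⟩ := exists_orderOf_eq_prime pp d
    rw [hR] at m
    have A : PiG {2}ᶜ (zpowers a) := PiN.of_card_prime pp (by rw [Nat.card_zpowers, o]) n2
    have aR : zpowers a ≤ C(R) := zpowers_le.2 m
    have k := PxQ (es h b).pg (pg_of_sq sq) A (VR.trans (cents_symm aR)) ((comm_of_sq sq).trans cs)
      ((aR.trans (cent_mono VR)).trans cs) (QR.trans (cents_symm aR))
    have := ((es h b).pg.of_le (k.trans (le h b).cent)).eq_bot A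
    rw [zpowers_eq_bot] at this
    rw [this, orderOf_one] at o
    exact pp.one_lt.ne o
  obtain ⟨x, a, x1⟩ := exists_ne_one ((pg_of_sq hX).meet_cent rp (RV.trans n) X1)
  exact ⟨x, ⟨CR a.2, a.2, hX x a.1⟩, a.1, x1⟩

/-- the seven classes -/
def Ty {G : Type} [Group G] (z : G) (𝒜 : Subgroup G → Prop) : Fin 7 → Subgroup G → Prop :=
  ![fun X => (Pure z X ∧ ∃ u, IsConj z u ∧ X ≤ Qo u) ∧ #X = 2, fun X => (Pure z X ∧ ∃ u, IsConj z u ∧ X ≤ Qo u) ∧ #X = 4,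
    fun X => Sing z X ∧ #X = 2, fun X => Sing z X ∧ #X = 4, fun X => Sing z X ∧ #X = 8,
    fun X => ∃ U, Sing z U ∧ #U = 16 ∧ X = FU z U, 𝒜]

section
variable {G : Type} [Group G] [Finite G] {z : G} {𝒜 : Subgroup G → Prop} {X : Subgroup G}

theorem pure_sq (p : Pure z X) : ∀ x ∈ X, x * x = 1 := fun x a => by
  by_cases n : x = 1
  exacts [by simp [n], (p x a n).1]

theorem pow_cases (p : PG 2 X) (n : X ≠ ⊥) (l : #X ≤ 8) : #X = 2 ∨ #X = 4 ∨ #X = 8 := by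
  obtain ⟨k, e⟩ := p.exists_card
  have := ne_bot_iff_one_lt_card.1 n
  rw [e] at this l ⊢
  have : k ≤ 3 := (Nat.pow_le_pow_iff_right (by norm_num : 1 < 2)).1 l
  interval_cases k <;> simp_all

theorem ty_of (c : Cx z 𝒜) (t : Ta z) (g : Good z 𝒜 X) : ∃ i, Ty z 𝒜 i X := by
  rcases g with ⟨n, p, u, b, l⟩ | ⟨n, s, l⟩ | g | g
  · have := t.le u b X l p
    rcases pow_cases (pg_of_sq (pure_sq p)) n (by omega) with e | e | e
    exacts [⟨0, ⟨p, u, b, l⟩, e⟩, ⟨1, ⟨p, u, b, l⟩, e⟩, by omega]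
  · rcases pow_cases (pg_of_sq (s.sq c.mg)) n l with e | e | e
    exacts [⟨2, s, e⟩, ⟨3, s, e⟩, ⟨4, s, e⟩]
  · exact ⟨5, g⟩
  · exact ⟨6, g⟩

theorem ty_loc (c : Cx z 𝒜) {i : Fin 7} (t : Ty z 𝒜 i X) : IsTwoLocal N(X) := by
  suffices k : PG 2 X ∧ 1 < #X from ⟨X, k.1.isPGroup, ne_bot_iff_one_lt_card.2 k.2, rfl⟩
  fin_cases i
  · exact ⟨pg_of_sq (pure_sq t.1.1), t.2 ▸ by norm_num⟩
  · exact ⟨pg_of_sq (pure_sq t.1.1), t.2 ▸ by norm_num⟩
  · exact ⟨pg_of_sq (t.1.sq c.mg), t.2 ▸ by norm_num⟩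
  · exact ⟨pg_of_sq (t.1.sq c.mg), t.2 ▸ by norm_num⟩
  · exact ⟨pg_of_sq (t.1.sq c.mg), t.2 ▸ by norm_num⟩
  · obtain ⟨U, s, e, rfl⟩ := t
    obtain ⟨g, k⟩ := c.t4 U s e
    have l : FU z U ≤ QU U := sup_le s.le_QU ((closure_le _).2 fun _ d => d.1)
    refine ⟨(PiN.of_card_pow Nat.prime_two k.card).of_le l, ?_⟩
    have : #U ≤ #(FU z U) := card_le le_sup_left
    omega
  · have l := c.la (E := X) t
    exact ⟨pg_of_sq l.ab, l.card ▸ by norm_num⟩

theorem ty_cj (s : Sc z) (t : Ta z) (a : ∀ E E', 𝒜 E → 𝒜 E' → ∃ g, cj g E = E') {i : Fin 7} {Y : Subgroup G}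
    (x : Ty z 𝒜 i X) (y : Ty z 𝒜 i Y) : ∃ g, cj g X = Y := by
  fin_cases i
  · obtain ⟨⟨p, u, b, l⟩, e⟩ := x
    obtain ⟨⟨p', u', b', l'⟩, e'⟩ := y
    exact t.conj u u' b b' X l Y l' p p' (e.trans e'.symm)
  · obtain ⟨⟨p, u, b, l⟩, e⟩ := x
    obtain ⟨⟨p', u', b', l'⟩, e'⟩ := y
    exact t.conj u u' b b' X l Y l' p p' (e.trans e'.symm)
  · exact s X Y x.1 y.1 (x.2.trans y.2.symm) (x.2 ▸ by norm_num)
  · exact s X Y x.1 y.1 (x.2.trans y.2.symm) (x.2 ▸ by norm_num)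
  · exact s X Y x.1 y.1 (x.2.trans y.2.symm) (x.2 ▸ by norm_num)
  · obtain ⟨U, u, e, rfl⟩ := x
    obtain ⟨U', u', e', rfl⟩ := y
    obtain ⟨g, rfl⟩ := s U U' u u' (e.trans e'.symm) e.le
    exact ⟨g, cj_FU g U⟩
  · exact a X Y x y

theorem loc_cent (h : MG z) {u : G} (b : IsConj z u) : IsTwoLocal C[u] :=
  ⟨Qo u, (es h b).isPGroup, ne_bot_of_mem (self h b) (ne1 h b), le_antisymm (nQ h b) (es h b).norm_le⟩

end

theorem fn : FN := by
  classical
  intro G _ _ z 𝒜 c s t ⟨E, hE⟩ a hH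
  let r : Fin 7 → Subgroup G := fun i => if k : ∃ X, Ty z 𝒜 i X then N(k.choose) else C[z]
  have rl : ∀ i, IsTwoLocal (r i) := fun i => by
    simp only [r]
    split_ifs with k
    exacts [ty_loc c k.choose_spec, loc_cent c.mg (IsConj.refl z)]
  obtain ⟨e, p, -, q, -⟩ := (c.ark hE).co
  have b : ∀ i : I10, IsConj z (e (Pi.single i 1)) := fun i => (q _ (by simp)).1 (q_single i)
  let w : I10 → Subgroup G := fun i => C[e (Pi.single i 1)]
  have wi : Function.Injective w := fun i j k => by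
    have k1 : Qo (e (Pi.single i 1)) = Qo (e (Pi.single j 1)) := congrArg (Oc {2}) k
    have k2 := (es c.mg (b i)).uniq (k1 ▸ es c.mg (b j))
    have k3 : (Pi.single j 1 + Pi.single i 1 : V10) = 0 := p.inj _ (by rw [p.add, k2, sq c.mg (b i)])
    by_contra n
    have := congrFun k3 i
    simp [Pi.single_apply, n] at this
  obtain ⟨S, s1, s2, s3⟩ := Finset.exists_subsuperset_card_eq
    (s := Finset.univ.image r) (t := Finset.univ.image r ∪ Finset.univ.image w) (n := 7) Finset.subset_union_left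
    (Finset.card_image_le.trans (by simp)) (le_trans (by
      rw [Finset.card_image_of_injective _ wi]; simp) (Finset.card_le_card Finset.subset_union_right))
  refine ⟨S, s3, fun H m => ?_, fun H m => ?_⟩
  · rcases Finset.mem_union.1 (s2 m) with k | k <;> obtain ⟨i, -, rfl⟩ := Finset.mem_image.1 k
    exacts [rl i, loc_cent c.mg (b i)]
  · obtain ⟨X, g, l⟩ := hH H m
    obtain ⟨i, x⟩ := ty_of c t g
    have k : ∃ X, Ty z 𝒜 i X := ⟨X, x⟩
    obtain ⟨g, f⟩ := ty_cj s t a k.choose_spec x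
    refine ⟨r i, s1 (Finset.mem_image_of_mem _ (Finset.mem_univ i)), g, ?_⟩
    rw [← m.2 _ (ty_loc c x) l, ← cj_def]
    simp only [r, dif_pos k]
    rw [cj_norm, f]

end H10.MX
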