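import Cfsg.Agent.H15.MX0

/-! Pure subgroups of the large extraspecial subgroup of a group of Monster type. -/

set_option autoImplicit false
set_option linter.unusedSectionVars false

namespace H10.MX
open Cfsg H15 H19 H0 H0.Mo H0.Y H15.ML H15.MX Subgroup

section
variable {G : Type} [Group G] [Finite G] {z s p x y t : G} {Q Q' X X' : Subgroup G}

theorem ex_not_mem (F : Finset G) (h : F.card < #X) : ∃ x ∈ X, x ∉ F := by
  by_contra! k
  have := Nat.card_le_card_of_injective (fun x : X => (⟨x.1, k x x.2⟩ : F)) fun a b e =>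
    Subtype.ext (congrArg (fun w : F => w.1) e)
  rw [Nat.card_eq_fintype_card (α := F), Fintype.card_coe] at this
  omega

theorem sep (h : ES Q z) (hx : x ∈ Q) (hy : y ∈ Q) (n : y ∉ zpowers x ⊔ zpowers z) :
    ∃ k ∈ Q, k * x * k⁻¹ = x ∧ k * (y * z) * k⁻¹ = y := by
  have e := h.cent_cent (A := zpowers x ⊔ zpowers z) (mem_sup_right (mem_zpowers z))
    (sup_le (zpowers_le.2 hx) h.zp_le)
  have : ¬ ∀ k ∈ Q ⊓ C(zpowers x ⊔ zpowers z), k * y = y * k := fun k => n (e ▸ ⟨hy, mem_cent.2 k⟩)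
  push Not at this
  obtain ⟨k, a, b⟩ := this
  refine ⟨k, a.1, ?_, ?_⟩
  · rw [← mem_cent.1 a.2 x (mem_sup_left (mem_zpowers x)), mul_inv_cancel_right]
  · rw [← conj_mul, h.conj_eq a.1 hy b, h.cent k a.1, mul_inv_cancel_right, mul_assoc, h.zz, mul_one]

theorem pmul (P : Pure z X) (hx : x ∈ X) (hy : y ∈ X) (x1 : x ≠ 1) (n : y ≠ x) : A2 z (x * y) :=
  P _ (mul_mem hx hy) fun e => n (by rw [eq_inv_of_mul_eq_one_right e, (P x hx x1).inv])

variable {f : C[z] →* Spor.Co1} {R : G → Lam → Prop} (M : MT Q z f R) (L : LP Q z Q' s) {v w : Lam}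
include M L

theorem norm32 (a : A2 z p) (r : R p v) (l : sqNorm (cf v) ≤ 64) : sqNorm (cf v) = 32 := by
  obtain ⟨u, r', e⟩ := of_a2 M L (M.mem r) a
  rcases ((M.uniq r r').2 (.inl rfl)).short l (by omega) with k | k <;> rw [k]
  exacts [e, (sqNorm_neg _).trans e]

theorem pair (P : Pure z X) (l : X ≤ Q) (hx : x ∈ X) (hy : y ∈ X) (x1 : x ≠ 1) (y1 : y ≠ 1) (n : y ≠ x)
    (r : R x v) (e : sqNorm (cf v) = 32) : ∃ w, R y w ∧ w ∈ Sh v (-16) := by
  obtain ⟨w, r', e'⟩ := of_a2 M L (l hy) (P y hy y1)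
  have a := pmul P hx hy x1 n
  have c : x * y = y * x := by
    rw [← a.inv, mul_inv_rev, (P x hx x1).inv, (P y hy y1).inv]
  have d := (M.comm_iff L r r').1 c
  have k : ¬ Cg v w := fun k => by
    rcases (M.uniq r r').1 k with k | k
    · exact n k
    · rw [k, ← mul_assoc, (P x hx x1).1, one_mul] at a
      exact a.2.2 (IsConj.refl z)
  have ng : dotInt (cf v) (cf (-w)) = -dotInt (cf v) (cf w) := dotInt_neg_right _ _
  rcases dot_cases e e' with b | b | b | (b | b) | b | b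
  · exact absurd (b ▸ Cg.refl w) k
  · exact absurd (b ▸ (Cg.neg v).symm) k
  · have q : sqNorm (cf (v + w)) = 64 := by
      show sqNorm (cf v + cf w) = _; rw [sqNorm_add, e, e', b.2]; rfl
    have := norm32 M L a (M.mul r r') q.le
    omega
  · have := b.2; omega
  · have := b.2; omega
  · exact ⟨w, r', b⟩
  · exact ⟨-w, M.cg r' (Cg.neg w).symm, b⟩

theorem no3 (P : Pure z X) (l : X ≤ Q) (hx : x ∈ X) (hy : y ∈ X) (ht : t ∈ X) (x1 : x ≠ 1) (y1 : y ≠ 1)
    (n : y ≠ x) : t = 1 ∨ t = x ∨ t = y ∨ t = x * y := by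
  by_contra! k
  obtain ⟨t1, tx, ty, txy⟩ := k
  obtain ⟨v, r, e⟩ := of_a2 M L (l hx) (P x hx x1)
  obtain ⟨w, r2, e2⟩ := pair M L P l hx hy x1 y1 n r e
  obtain ⟨u, r3, e3⟩ := pair M L P l hx ht x1 t1 tx r e
  obtain ⟨u', r4, e4⟩ := pair M L P l hy ht y1 t1 ty r2 e2.1
  have a := pmul P (mul_mem hx hy) ht (pmul P hx hy x1 n).2.1 txy
  have q : sqNorm (cf (v + w + u)) = 32 + 2 * dotInt (cf w) (cf u) := by
    show sqNorm (cf v + cf w + cf u) = _
    rw [sqNorm_add, sqNorm_add, dotInt_add_left, e, e2.1, e3.1, e2.2, e3.2]; ring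
  have b := norm32 M L a (M.mul (M.mul r r2) r3)
  have c := e4.2
  rcases ((M.uniq r4 r3).2 (.inl rfl)).short (e4.1.trans_le (by norm_num)) (e3.1.trans_lt (by norm_num)) with k | k
  · rw [k] at c; omega
  · rw [k, show cf (-u) = -cf u from rfl, dotInt_neg_right] at c; omega

theorem le4 (P : Pure z X) (l : X ≤ Q) : #X ≤ 4 := by
  classical
  by_contra! k
  obtain ⟨x, hx, a⟩ := ex_not_mem (X := X) {1} (by simp; omega)
  obtain ⟨y, hy, b⟩ := ex_not_mem (X := X) {1, x} (Finset.card_le_two.trans_lt (by omega))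
  obtain ⟨t, ht, c⟩ := ex_not_mem (X := X) {1, x, y, x * y} (Finset.card_le_four.trans_lt k)
  simp only [Finset.mem_insert, Finset.mem_singleton, not_or] at a b c
  have := no3 M L P l hx hy ht a b.1 b.2
  tauto

theorem conj0 (P : Pure z X) (l : X ≤ Q) (P' : Pure z X') (l' : X' ≤ Q) (e : #X = #X') : ∃ g, cj g X = X' := by
  classical
  suffices k : ∃ g, X' ≤ cj g X from
    k.imp fun g k => (eq_of_le_of_card_eq k (by rw [card_cj, e])).symm
  by_cases b : X' = ⊥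
  · exact ⟨1, b ▸ bot_le⟩
  obtain ⟨x', hx', x1'⟩ := exists_ne_one b
  obtain ⟨x, hx, x1⟩ := exists_ne_one (ne_bot_iff_one_lt_card.2 (e ▸ ne_bot_iff_one_lt_card.1 b))
  obtain ⟨v, r, n⟩ := of_a2 M L (l hx) (P x hx x1)
  obtain ⟨v', r', n'⟩ := of_a2 M L (l' hx') (P' x' hx' x1')
  by_cases c : ∀ y' ∈ X', y' = 1 ∨ y' = x'
  · obtain ⟨g, rfl⟩ := trans_min n
    obtain ⟨g', rfl⟩ := trans_min n'
    obtain ⟨h, -, rfl⟩ := M.conj_type r r' nz_U
    refine ⟨h, fun y' a => ?_⟩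
    rcases c y' a with rfl | rfl
    exacts [one_mem _, conj_mem_cj.2 hx]
  push Not at c
  obtain ⟨y', hy', y1', yx'⟩ := c
  have c2 : 2 < #X := by
    by_contra! k
    have : ({1, x', y'} : Finset G).card ≤ #X' := by
      have := Nat.card_le_card_of_injective (fun a : ({1, x', y'} : Finset G) => (⟨a.1, by
        have := a.2
        simp only [Finset.mem_insert, Finset.mem_singleton] at this
        rcases this with k | k | k <;> rw [k]
        exacts [one_mem _, hx', hy']⟩ : X')) fun a b e => Subtype.ext (congrArg (fun w : X' => w.1) e)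
      rwa [Nat.card_eq_fintype_card, Fintype.card_coe] at this
    rw [Finset.card_eq_three.2 ⟨1, x', y', x1'.symm, y1'.symm, yx'.symm, rfl⟩] at this
    omega
  obtain ⟨y, hy, a⟩ := ex_not_mem (X := X) {1, x} (Finset.card_le_two.trans_lt c2)
  simp only [Finset.mem_insert, Finset.mem_singleton, not_or] at a
  obtain ⟨w, r2, e2⟩ := pair M L P l hx hy x1 a.1 a.2 r n
  obtain ⟨w', r2', e2'⟩ := pair M L P' l' hx' hy' x1' y1' yx' r' n'
  obtain ⟨g, g1, g2⟩ := pair_std trans4600 (trans_min n) e2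
  obtain ⟨g', g1', g2'⟩ := pair_std trans4600 (trans_min n') e2'
  have k1 : (g' * g⁻¹) • v = v' := by rw [← g1, mul_smul, inv_smul_smul, g1']
  have k2 : (g' * g⁻¹) • w = w' := by rw [← g2, mul_smul, inv_smul_smul, g2']
  obtain ⟨h, h1, h2⟩ := M.conj r (k1 ▸ r') (nz_of n (by omega))
  have h3 := M.act h1 r2
  rw [k2] at h3
  obtain ⟨k, k3, k4⟩ : ∃ k : G, k * x * k⁻¹ = x' ∧ k * y * k⁻¹ = y' := by
    rcases (M.uniq r2' h3).1 (.refl _) with q | q
    · exact ⟨h, h2, q⟩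
    obtain ⟨k, -, q1, q2⟩ := sep M.le.es (l' hx') (l' hy') fun m => by
      rcases (mem_four (P' x' hx' x1').1 M.le.es.zz (M.le.es.cent _ (l' hx'))).1 m with m | m | m | m
      · exact y1' m
      · exact yx' m
      · exact (P' y' hy' y1').2.2 (m ▸ IsConj.refl _)
      · have := pmul P' hx' hy' x1' yx'
        rw [m, ← mul_assoc, (P' x' hx' x1').1, one_mul] at this
        exact this.2.2 (IsConj.refl z)
    exact ⟨k * h, by rw [← q1, ← h2]; group, by rw [← q2, ← q]; group⟩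
  refine ⟨k, fun t ht => ?_⟩
  have m1 : x' ∈ cj k X := k3 ▸ conj_mem_cj.2 hx
  have m2 : y' ∈ cj k X := k4 ▸ conj_mem_cj.2 hy
  rcases no3 M L P' l' hx' hy' ht x1' y1' yx' with rfl | rfl | rfl | rfl
  exacts [one_mem _, m1, m2, mul_mem m1 m2]

end

theorem ta : TA := by
  intro G _ _ z h
  obtain ⟨s, f, R, L, -, M, -⟩ := h.ex
  have red : ∀ u, IsConj z u → ∀ X ≤ Qo u, Pure z X → ∃ g, cj g X ≤ Qo z ∧ Pure z (cj g X) := fun u b X l P => by
    obtain ⟨g, rfl⟩ := isConj_iff.1 b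
    refine ⟨g⁻¹, le_cj_iff.1 (cj_Qo g z ▸ l), fun x a n => ?_⟩
    obtain ⟨y, c, rfl⟩ := mem_cj'.1 a
    exact (P y c (fun e => n (by simp [e]))).cj _
  refine ⟨fun u b X l P => ?_, fun u u' b b' X l X' l' P P' e => ?_⟩
  · obtain ⟨g, a, c⟩ := red u b X l P
    exact card_cj g X ▸ le4 M L c a
  · obtain ⟨g, a, c⟩ := red u b X l P
    obtain ⟨g', a', c'⟩ := red u' b' X' l' P'
    obtain ⟨k, q⟩ := conj0 M L c a c' a' (by rw [card_cj, card_cj, e])
    exact ⟨g'⁻¹ * (k * g), by rw [cj_mul, cj_mul, q, cj_inv_cj]⟩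

end H10.MX
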